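import Mathlib

/-!
# Arithmetic for Hall subgroups of symmetric groups

Digit sums, a central-binomial fact and an Ecklund-type theorem: if `a > b ≥ 2` and no prime `≤ a` divides
`C(a+b, b)` then `(a, b) = (4, 3)`.
-/

set_option autoImplicit false

namespace Cfsg.Agent.Lib.HallPrime.Arith

open Nat

/-- `2^y + 1` is not a power of `3` when `y ≥ 2`, `y ≠ 3`. -/
theorem two_pow_add_one_ne_three_pow {y j : ℕ} (hy : 2 ≤ y) (hy3 : y ≠ 3) : 2 ^ y + 1 ≠ 3 ^ j := by
  intro h
  obtain ⟨z, rfl⟩ := Nat.exists_eq_add_of_le hy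
  have h4 : 3 ^ j % 4 = 1 := by
    rw [← h, pow_add]
    omega
  rcases Nat.even_or_odd' j with ⟨k, rfl | rfl⟩
  · set t := 3 ^ k with ht
    have hsq : 3 ^ (2 * k) = t * t := by rw [ht, two_mul, pow_add]
    have ht1 : 1 ≤ t := Nat.one_le_pow _ _ (by norm_num)
    have htodd : t % 2 = 1 := by
      rw [ht, Nat.pow_mod]; simp
    obtain ⟨u, hu⟩ : ∃ u, t = u + 1 := ⟨t - 1, by omega⟩
    have hprod : u * (u + 2) = 2 ^ (2 + z) := by
      rw [hu] at hsq
      rw [hsq] at h
      nlinarith
    have h1 : u ∣ 2 ^ (2 + z) := ⟨_, hprod.symm⟩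
    have h2 : u + 2 ∣ 2 ^ (2 + z) := ⟨u, by rw [← hprod, mul_comm]⟩
    obtain ⟨v, -, hv⟩ := (Nat.dvd_prime_pow Nat.prime_two).1 h1
    obtain ⟨w, -, hw⟩ := (Nat.dvd_prime_pow Nat.prime_two).1 h2
    rcases v with _ | _ | v
    · -- u = 1, t = 2: not odd
      simp at hv
      omega
    · -- u = 2, t = 3, 2^(2+z) = 8
      simp at hv
      subst hv
      have : (2:ℕ) ^ (2 + z) = 2 ^ 3 := by rw [← hprod]; norm_num
      have := Nat.pow_right_injective (le_refl 2) this
      omega
    · -- u = 4 * 2^v: u + 2 ≡ 2 mod 4 is a power of two > 2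
      have hv1 := Nat.one_le_two_pow (n := v)
      rw [pow_succ, pow_succ] at hv
      rcases w with _ | _ | w
      · simp at hw
      · simp at hw; omega
      · rw [pow_succ, pow_succ] at hw
        omega
  · have : 3 ^ (2 * k + 1) % 4 = 3 := by
      rw [pow_succ, pow_mul]
      have : (3 ^ 2) ^ k % 4 = 1 := by
        rw [Nat.pow_mod]; simp
      rw [Nat.mul_mod, this]
    omega

/-- The identity behind the divisibility by `b + 2`. -/
theorem central_relation (d : ℕ) :
    (2 * (d + 2)).choose (d + 2) * (d + 2) * (d + 1) =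
      (2 * (d + 2)).choose d * (d + 4) * (d + 3) := by
  have h1 := Nat.choose_succ_right_eq (2 * (d + 2)) (d + 1)
  have h2 := Nat.choose_succ_right_eq (2 * (d + 2)) d
  rw [show 2 * (d + 2) - (d + 1) = d + 3 by omega] at h1
  rw [show 2 * (d + 2) - d = d + 4 by omega] at h2
  calc (2 * (d + 2)).choose (d + 2) * (d + 2) * (d + 1)
      = (2 * (d + 2)).choose (d + 1) * (d + 3) * (d + 1) := by rw [h1]
    _ = ((2 * (d + 2)).choose (d + 1) * (d + 1)) * (d + 3) := by ring
    _ = (2 * (d + 2)).choose d * (d + 4) * (d + 3) := by rw [h2]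

/-- For `e ≥ 3`, an odd prime `≤ 2^e` divides `C(2^(e+1), 2^e)`. -/
theorem exists_odd_prime_dvd_central {e : ℕ} (he : 3 ≤ e) :
    ∃ r : ℕ, r.Prime ∧ r ≠ 2 ∧ r ≤ 2 ^ e ∧ r ∣ (2 * 2 ^ e).choose (2 ^ e) := by
  by_cases he4 : e = 4
  · subst he4
    refine ⟨3, Nat.prime_three, by norm_num, by norm_num, ?_⟩
    have h : (2 * 2 ^ 4).choose (2 ^ 4) = 601080390 := by
      rw [Nat.choose_eq_descFactorial_div_factorial]
      norm_num [Nat.descFactorial, Nat.factorial]
    rw [h]
    norm_num
  obtain ⟨y, rfl⟩ : ∃ y, e = y + 1 := ⟨e - 1, by omega⟩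
  have hy2 : 2 ≤ y := by omega
  have hy3 : y ≠ 3 := by omega
  set w := 2 ^ y + 1 with hw
  have hwne : w ≠ 0 := by rw [hw]; exact Nat.succ_ne_zero _
  have hex : ∃ r : ℕ, r.Prime ∧ r ∣ w ∧ r ≠ 3 := by
    by_contra hcon
    push Not at hcon
    have := Nat.eq_prime_pow_of_unique_prime_dvd hwne (fun {d} hd hdw => hcon d hd hdw)
    exact two_pow_add_one_ne_three_pow hy2 hy3 this
  obtain ⟨r, hr, hrw, hr3⟩ := hex
  have hwodd : w % 2 = 1 := by
    obtain ⟨z, rfl⟩ := Nat.exists_eq_add_of_le hy2
    rw [hw, pow_add]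
    omega
  have hr2 : r ≠ 2 := by
    rintro rfl
    omega
  have hpow : 2 ^ (y + 1) = 2 * 2 ^ y := by rw [pow_succ, mul_comm]
  have h2y : 4 ≤ 2 ^ y := by
    calc 4 = 2 ^ 2 := by norm_num
      _ ≤ 2 ^ y := Nat.pow_le_pow_right (by norm_num) hy2
  refine ⟨r, hr, hr2, ?_, ?_⟩
  · have := Nat.le_of_dvd (by omega) hrw
    omega
  · -- set `b = d + 2`
    obtain ⟨d, hd⟩ : ∃ d, 2 ^ (y + 1) = d + 2 := ⟨2 ^ (y + 1) - 2, by omega⟩
    rw [hd]
    have hrel := central_relation d
    have hd4 : d + 4 = 2 * w := by omega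
    have hr4 : r ∣ d + 4 := by rw [hd4]; exact hrw.trans (dvd_mul_left _ _)
    have h1 : r ∣ (2 * (d + 2)).choose (d + 2) * (d + 2) * (d + 1) := by
      rw [hrel]
      exact (hr4.trans (dvd_mul_left _ _)).trans (dvd_mul_right _ _)
    have hnd2 : ¬ r ∣ d + 2 := by
      intro h
      rw [← hd] at h
      have := hr.dvd_of_dvd_pow h
      exact hr2 ((Nat.prime_dvd_prime_iff_eq hr Nat.prime_two).1 this)
    have hnd1 : ¬ r ∣ d + 1 := by
      intro h
      have h3 : r ∣ 3 := by
        have : d + 4 = (d + 1) + 3 := by omega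
        rw [this] at hr4
        exact (Nat.dvd_add_right h).1 hr4
      exact hr3 ((Nat.prime_dvd_prime_iff_eq hr Nat.prime_three).1 h3)
    rcases (Nat.Prime.dvd_mul hr).1 h1 with h2 | h2
    · rcases (Nat.Prime.dvd_mul hr).1 h2 with h3 | h3
      · exact h3
      · exact absurd h3 hnd2
    · exact absurd h2 hnd1

/-! ### Digit sums -/

/-- The digit sum. -/
def ds (p m : ℕ) : ℕ := (Nat.digits p m).sum

theorem ds_le (p m : ℕ) : ds p m ≤ m := Nat.digit_sum_le p m

theorem sub_one_mul_val {p : ℕ} [hp : Fact p.Prime] (m : ℕ) :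
    (p - 1) * padicValNat p m.factorial = m - ds p m :=
  sub_one_mul_padicValNat_factorial m

/-- Subadditivity of the digit sum. -/
theorem ds_add_le {p : ℕ} [hp : Fact p.Prime] (x y : ℕ) : ds p (x + y) ≤ ds p x + ds p y := by
  have h1 := sub_one_mul_val (p := p) x
  have h2 := sub_one_mul_val (p := p) y
  have h3 := sub_one_mul_val (p := p) (x + y)
  have hx := ds_le p x
  have hy := ds_le p y
  have hxy := ds_le p (x + y)
  have hd : padicValNat p x.factorial + padicValNat p y.factorial ≤ padicValNat p (x + y).factorial := by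
    have hdvd := Nat.factorial_mul_factorial_dvd_factorial_add x y
    rw [← padicValNat.mul (Nat.factorial_ne_zero _) (Nat.factorial_ne_zero _)]
    exact (padicValNat_dvd_iff_le (Nat.factorial_ne_zero _)).1
      ((pow_padicValNat_dvd).trans hdvd)
  have h4 : (p - 1) * padicValNat p x.factorial + (p - 1) * padicValNat p y.factorial ≤
      (p - 1) * padicValNat p (x + y).factorial := by
    rw [← mul_add]
    exact Nat.mul_le_mul_left _ hd
  rw [h1, h2, h3] at h4
  omega

theorem ds_mul_base {p : ℕ} [hp : Fact p.Prime] (x : ℕ) : ds p (p * x) = ds p x := by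
  have hp1 : 1 < p := hp.out.one_lt
  rcases Nat.eq_zero_or_pos x with rfl | hx
  · simp [ds]
  · unfold ds
    rw [Nat.digits_def' hp1 (Nat.mul_pos hp.out.pos hx)]
    simp [Nat.mul_mod_right, Nat.mul_div_cancel_left _ hp.out.pos]

theorem ds_nsmul_le {p : ℕ} [hp : Fact p.Prime] (k x : ℕ) : ds p (k * x) ≤ k * ds p x := by
  induction k with
  | zero => simp [ds]
  | succ k ih =>
    rw [add_mul, one_mul, add_mul, one_mul]
    exact (ds_add_le _ _).trans (by omega)

/-- Digit sums are submultiplicative. -/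
theorem ds_mul_le {p : ℕ} [hp : Fact p.Prime] (x y : ℕ) : ds p (x * y) ≤ ds p x * ds p y := by
  have hp1 : 1 < p := hp.out.one_lt
  induction y using Nat.strong_induction_on with
  | _ y ih =>
    rcases Nat.eq_zero_or_pos y with rfl | hy
    · simp [ds]
    · have hdig : ds p y = y % p + ds p (y / p) := by
        unfold ds
        rw [Nat.digits_def' hp1 hy]
        simp
      have hlt : y / p < y := Nat.div_lt_self hy hp1
      have h1 := ih (y / p) hlt
      have hy2 : x * y = (y % p) * x + p * (x * (y / p)) := by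
        conv_lhs => rw [← Nat.mod_add_div y p]
        ring
      rw [hy2, hdig]
      calc ds p ((y % p) * x + p * (x * (y / p)))
          ≤ ds p ((y % p) * x) + ds p (p * (x * (y / p))) := ds_add_le _ _
        _ ≤ (y % p) * ds p x + ds p (x * (y / p)) := by
            rw [ds_mul_base]
            exact Nat.add_le_add_right (ds_nsmul_le _ _) _
        _ ≤ (y % p) * ds p x + ds p x * ds p (y / p) := Nat.add_le_add_left h1 _
        _ = ds p x * (y % p + ds p (y / p)) := by ring

/-- Digit sum one means a power of the base. -/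
theorem eq_pow_of_ds_eq_one {p : ℕ} [hp : Fact p.Prime] {b : ℕ} (h : ds p b = 1) : ∃ e, b = p ^ e := by
  have hp1 : 1 < p := hp.out.one_lt
  induction b using Nat.strong_induction_on with
  | _ b ih =>
    rcases Nat.eq_zero_or_pos b with rfl | hb
    · simp [ds] at h
    · have hdig : ds p b = b % p + ds p (b / p) := by
        unfold ds
        rw [Nat.digits_def' hp1 hb]
        simp
      rw [h] at hdig
      have hlt : b / p < b := Nat.div_lt_self hb hp1
      have hb2 := Nat.mod_add_div b p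
      rcases Nat.eq_zero_or_pos (b % p) with h0 | h0
      · have h3 : ds p (b / p) = 1 := by omega
        obtain ⟨e, he⟩ := ih _ hlt h3
        refine ⟨e + 1, ?_⟩
        rw [h0, he, zero_add] at hb2
        rw [pow_succ, mul_comm, ← hb2]
      · have h3 : ds p (b / p) = 0 := by omega
        have h4 : b % p = 1 := by omega
        have h5 : b / p = 0 := by
          by_contra hne
          have := Nat.pos_of_ne_zero hne
          -- digit sum of a positive number is positive
          have hpos : ∀ m : ℕ, 0 < m → 0 < ds p m := by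
            intro m
            induction m using Nat.strong_induction_on with
            | _ m ihm =>
              intro hm
              have hdm : ds p m = m % p + ds p (m / p) := by
                unfold ds
                rw [Nat.digits_def' hp1 hm]
                simp
              rcases Nat.eq_zero_or_pos (m % p) with hm0 | hm0
              · have hm2 := Nat.mod_add_div m p
                have hq : 0 < m / p := by
                  rcases Nat.eq_zero_or_pos (m / p) with h | h
                  · rw [h, hm0] at hm2; simp at hm2; omega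
                  · exact h
                have := ihm _ (Nat.div_lt_self hm hp1) hq
                omega
              · omega
          have := hpos _ this
          omega
        refine ⟨0, ?_⟩
        rw [h4, h5] at hb2
        simpa using hb2.symm

/-- The key consequence of `v_r((bc)!) = c v_r(b!) + v_r(c!)` when `r ≤ c`: `b` is a power of `r`. -/
theorem eq_pow_of_val_eq {p b c : ℕ} [hp : Fact p.Prime] (hc : p ≤ c) (hb : 0 < b)
    (h : padicValNat p (b * c).factorial = c * padicValNat p b.factorial + padicValNat p c.factorial) :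
    ∃ e, b = p ^ e := by
  have hp1 : 1 < p := hp.out.one_lt
  have h1 := sub_one_mul_val (p := p) (b * c)
  have h2 := sub_one_mul_val (p := p) b
  have h3 := sub_one_mul_val (p := p) c
  have hbb := ds_le p b
  have hcc := ds_le p c
  have hbc := ds_le p (b * c)
  have hmul := ds_mul_le (p := p) b c
  have hcpos : 0 < padicValNat p c.factorial := by
    have : p ∣ c.factorial := (Nat.Prime.dvd_factorial hp.out).2 hc
    exact Nat.pos_of_ne_zero (fun h0 => by
      have := (padicValNat_dvd_iff_le (p := p) (n := 1) (Nat.factorial_ne_zero c)).1 (by simpa using this)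
      omega)
  have hlt : ds p c < c := by
    have : 0 < (p - 1) * padicValNat p c.factorial := Nat.mul_pos (by omega) hcpos
    rw [h3] at this
    omega
  have key : (p - 1) * padicValNat p (b * c).factorial =
      c * ((p - 1) * padicValNat p b.factorial) + (p - 1) * padicValNat p c.factorial := by
    rw [h]; ring
  rw [h1, h2, h3] at key
  -- `s(bc) + c = c s(b) + s(c)`
  have key2 : ds p (b * c) + c = c * ds p b + ds p c := by
    have h4 : c * (b - ds p b) = c * b - c * ds p b := Nat.mul_sub _ _ _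
    have h5 : c * ds p b ≤ c * b := Nat.mul_le_mul_left _ hbb
    have h6 : b * c = c * b := mul_comm _ _
    rw [h4] at key
    rw [h6] at key hbc
    have h7 : ds p (b * c) = ds p (c * b) := by rw [h6]
    rw [h7]
    omega
  have hs : ds p b = 1 := by
    have hs0 : ds p b ≠ 0 := by
      intro h0
      rw [h0] at key2
      omega
    by_contra hne
    obtain ⟨t, ht⟩ : ∃ t, ds p b = t + 2 := ⟨ds p b - 2, by omega⟩
    rw [ht] at key2 hmul
    nlinarith
  exact eq_pow_of_ds_eq_one hs

/-! ### Binomial coefficients without small prime factors -/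

section Ecklund

/-- The factorial bound. -/
theorem two_pow_mul_factorial_le (n : ℕ) : 2 ^ n * n.factorial ≤ (n + 1) ^ n := by
  induction n with
  | zero => simp
  | succ n ih =>
    have h1 : 2 * (n + 1) ^ (n + 1) ≤ (n + 2) ^ (n + 1) := by
      have := one_add_mul_le_pow (a := (1 : ℚ) / (n + 1)) (by
        have : (0 : ℚ) ≤ 1 / (n + 1) := by positivity
        linarith) (n + 1)
      have hne : ((n : ℚ) + 1) ≠ 0 := by positivity
      have h2 : (1 : ℚ) + ((n + 1 : ℕ) : ℚ) * (1 / (n + 1)) = 2 := by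
        push_cast
        field_simp
        norm_num
      rw [h2] at this
      have h3 : (1 + 1 / ((n : ℚ) + 1)) = ((n : ℚ) + 2) / (n + 1) := by
        field_simp
        ring
      rw [h3, div_pow, le_div_iff₀ (by positivity)] at this
      exact_mod_cast this
    calc 2 ^ (n + 1) * (n + 1).factorial = 2 * (n + 1) * (2 ^ n * n.factorial) := by
          rw [Nat.factorial_succ, pow_succ]; ring
      _ ≤ 2 * (n + 1) * (n + 1) ^ n := Nat.mul_le_mul_left _ ih
      _ = 2 * (n + 1) ^ (n + 1) := by rw [pow_succ]; ring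
      _ ≤ (n + 1 + 1) ^ (n + 1) := h1

/-- The final numerical inequality. -/
theorem numeric_final (b : ℕ) (hb : 4 ≤ b) :
    3 ^ (2 * b - 3) * (b + 1) ^ 9 < 2 ^ ((2 * b - 3) + 6 * b) := by
  induction b, hb using Nat.le_induction with
  | base => norm_num
  | succ b hb ih =>
    have e1 : 2 * (b + 1) - 3 = (2 * b - 3) + 2 := by omega
    rw [e1]
    have e2 : (2 * b - 3) + 2 + 6 * (b + 1) = ((2 * b - 3) + 6 * b) + 8 := by ring
    rw [e2, pow_add 2 _ 8, pow_add 3 _ 2]
    have h1 : 5 * (b + 1 + 1) ≤ 6 * (b + 1) := by omega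
    have h2 : 5 ^ 9 * (b + 1 + 1) ^ 9 ≤ 6 ^ 9 * (b + 1) ^ 9 := by
      rw [← mul_pow, ← mul_pow]
      exact Nat.pow_le_pow_left h1 9
    have h3 : 9 * (b + 1 + 1) ^ 9 ≤ 2 ^ 8 * (b + 1) ^ 9 := by
      nlinarith [h2, Nat.zero_le ((b + 1) ^ 9)]
    calc 3 ^ (2 * b - 3) * 3 ^ 2 * (b + 1 + 1) ^ 9
        = 3 ^ (2 * b - 3) * (9 * (b + 1 + 1) ^ 9) := by ring
      _ ≤ 3 ^ (2 * b - 3) * (2 ^ 8 * (b + 1) ^ 9) := Nat.mul_le_mul_left _ h3
      _ = (3 ^ (2 * b - 3) * (b + 1) ^ 9) * 2 ^ 8 := by ring
      _ < 2 ^ ((2 * b - 3) + 6 * b) * 2 ^ 8 := Nat.mul_lt_mul_of_pos_right ih (by positivity)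

/-- Counting multiples of 2 or 3 in a window. -/
theorem count_two_three_aux (a b : ℕ) :
    ((Finset.range b).filter (fun i => 2 ∣ a + 1 + i ∨ 3 ∣ a + 1 + i)).card + a / 2 + a / 3 + (a + b) / 6 =
      (a + b) / 2 + (a + b) / 3 + a / 6 := by
  have key : ∀ y : ℕ, (y + 1) / 2 + (y + 1) / 3 + y / 6 =
      y / 2 + y / 3 + (y + 1) / 6 + (if 2 ∣ y + 1 ∨ 3 ∣ y + 1 then 1 else 0) := by
    intro y
    have hy := Nat.div_add_mod y 6
    have hs := Nat.mod_lt y (show 6 > 0 by norm_num)
    generalize y / 6 = q at hy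
    generalize y % 6 = s at hy hs
    subst hy
    interval_cases s <;> split_ifs <;> omega
  induction b with
  | zero => simp
  | succ b ih =>
    rw [Finset.range_add_one, Finset.filter_insert]
    have hk := key (a + b)
    rw [show a + b + 1 = a + 1 + b by omega] at hk
    rw [show a + (b + 1) = a + 1 + b by omega]
    by_cases h : 2 ∣ a + 1 + b ∨ 3 ∣ a + 1 + b
    · rw [if_pos h, Finset.card_insert_of_notMem (by simp)]
      rw [if_pos h] at hk
      omega
    · rw [if_neg h]
      rw [if_neg h] at hk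
      omega

theorem count_two_three (a b : ℕ) :
    2 * b ≤ 3 * ((Finset.range b).filter (fun i => 2 ∣ a + 1 + i ∨ 3 ∣ a + 1 + i)).card + 3 := by
  have h := count_two_three_aux a b
  have ha := Nat.div_add_mod a 6
  have hs := Nat.mod_lt a (show 6 > 0 by norm_num)
  have hb := Nat.div_add_mod b 6
  have ht := Nat.mod_lt b (show 6 > 0 by norm_num)
  generalize ((Finset.range b).filter (fun i => 2 ∣ a + 1 + i ∨ 3 ∣ a + 1 + i)).card = N at h ⊢
  generalize a / 6 = q at ha
  generalize a % 6 = s at ha hs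
  generalize b / 6 = q' at hb
  generalize b % 6 = t at hb ht
  subst ha hb
  interval_cases s <;> interval_cases t <;> omega

/-- The valuation of the central binomial coefficient at 2 is the binary digit sum. -/
theorem val_two_central (a : ℕ) : padicValNat 2 ((2 * a).choose a) = ds 2 a := by
  haveI : Fact (Nat.Prime 2) := ⟨Nat.prime_two⟩
  have h := sub_one_mul_padicValNat_choose_eq_sub_sum_digits (p := 2) (k := a) (n := 2 * a) (by omega)
  rw [show 2 * a - a = a by omega] at h
  have h2 : (Nat.digits 2 (2 * a)).sum = (Nat.digits 2 a).sum := ds_mul_base a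
  rw [h2] at h
  simp only [Nat.add_one_sub_one, one_mul, Nat.add_sub_cancel] at h
  simpa [ds] using h

/-- An Ecklund-type theorem. -/
theorem ecklund {a b : ℕ} (hab : b < a) (hb : 1 ≤ b)
    (h : ∀ p : ℕ, p.Prime → p ≤ a → ¬ p ∣ (a + b).choose b) : b = 1 ∨ (a = 4 ∧ b = 3) := by
  by_contra hcon
  push Not at hcon
  obtain ⟨hb1, hex⟩ := hcon
  have hb2 : 2 ≤ b := by omega
  set C := (a + b).choose b with hC
  have hcop : ∀ x : ℕ, (∀ p : ℕ, p.Prime → p ∣ x → p ≤ a) → Nat.Coprime x C := by
    intro x hx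
    apply Nat.coprime_of_dvd
    intro k hk h1 h2
    exact h k hk (hx k hk h1) h2
  have hcop' : ∀ x : ℕ, 1 ≤ x → x ≤ a → Nat.Coprime x C := by
    intro x h1 h2
    apply hcop
    intro p _ hd
    exact (Nat.le_of_dvd (by omega) hd).trans h2
  -- Step 1: `b + 1 ∣ a`
  have hstep1 : (a + b).choose (b + 1) * (b + 1) = C * a := by
    have := Nat.choose_succ_right_eq (a + b) b
    rwa [Nat.add_sub_cancel] at this
  have hd1 : b + 1 ∣ a := by
    have h1 : b + 1 ∣ C * a := ⟨(a + b).choose (b + 1), by rw [← hstep1, mul_comm]⟩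
    exact (hcop' (b + 1) (by omega) (by omega)).dvd_of_dvd_mul_left h1
  obtain ⟨m, hm⟩ := hd1
  have hm0 : m ≠ 0 := by
    rintro rfl
    omega
  by_cases hm1 : m = 1
  · -- `a = b + 1`
    subst hm1
    have ha : a = b + 1 := by omega
    subst ha
    have hcent : (2 * (b + 1)).choose (b + 1) = 2 * C := by
      rw [show 2 * (b + 1) = (2 * b + 1) + 1 by ring, Nat.choose_succ_succ, Nat.choose_symm_half, hC,
        show b + 1 + b = 2 * b + 1 by ring]
      ring
    haveI : Fact (Nat.Prime 2) := ⟨Nat.prime_two⟩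
    have h2C : ¬ 2 ∣ C := h 2 Nat.prime_two (by omega)
    have hCne : C ≠ 0 := by
      rintro h0
      exact h2C (by simp [h0])
    have hval : ds 2 (b + 1) = 1 := by
      rw [← val_two_central, hcent, padicValNat.mul (by norm_num) hCne, padicValNat_self,
        padicValNat.eq_zero_of_not_dvd h2C]
    obtain ⟨e, he⟩ := eq_pow_of_ds_eq_one hval
    by_cases he3 : 3 ≤ e
    · obtain ⟨r, hr, hr2, hrle, hrd⟩ := exists_odd_prime_dvd_central he3
      rw [← he, hcent] at hrd
      rw [← he] at hrle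
      rcases (Nat.Prime.dvd_mul hr).1 hrd with h3 | h3
      · exact hr2 ((Nat.prime_dvd_prime_iff_eq hr Nat.prime_two).1 h3)
      · exact h r hr hrle h3
    · have he2 : e = 0 ∨ e = 1 ∨ e = 2 := by omega
      rcases he2 with rfl | rfl | rfl
      · norm_num at he; omega
      · norm_num at he; omega
      · norm_num at he
        exact hex (by omega) (by omega)
  · -- `m ≥ 2`
    have hm2 : 2 ≤ m := by omega
    have ha2 : 2 * (b + 1) ≤ a := by
      rw [hm, mul_comm]
      exact Nat.mul_le_mul_left _ hm2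
    obtain ⟨a', rfl⟩ : ∃ a', a = a' + 1 := ⟨a - 1, by omega⟩
    have hstep2 : (a' + 1 + b).choose (b + 2) * (b + 2) = (a' + 1 + b).choose (b + 1) * a' := by
      have := Nat.choose_succ_right_eq (a' + 1 + b) (b + 1)
      rwa [show a' + 1 + b - (b + 1) = a' by omega] at this
    have hstep3 : (a' + 1 + b).choose (b + 2) * (b + 2) * (b + 1) = C * ((a' + 1) * a') := by
      calc _ = (a' + 1 + b).choose (b + 1) * (b + 1) * a' := by rw [hstep2]; ring
        _ = C * (a' + 1) * a' := by rw [hstep1]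
        _ = _ := by ring
    have hd2 : (b + 2) * (b + 1) ∣ (a' + 1) * a' := by
      have h1 : (b + 2) * (b + 1) ∣ C * ((a' + 1) * a') :=
        ⟨(a' + 1 + b).choose (b + 2), by rw [← hstep3]; ring⟩
      have h2 : Nat.Coprime ((b + 2) * (b + 1)) C :=
        Nat.Coprime.mul_left (hcop' _ (by omega) (by omega)) (hcop' _ (by omega) (by omega))
      exact h2.dvd_of_dvd_mul_left h1
    have hd3 : b + 2 ∣ m * a' := by
      rw [hm] at hd2
      have h1 : (b + 1) * (b + 2) ∣ (b + 1) * (m * a') := by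
        have : (b + 1) * m * a' = (b + 1) * (m * a') := by ring
        rw [this, mul_comm (b + 2)] at hd2
        exact hd2
      exact Nat.dvd_of_mul_dvd_mul_left (by omega) h1
    have hd4 : b + 2 ∣ m * (m + 1) := by
      have h1 : m * a' + m * (m + 1) = m * m * (b + 2) := by
        have : a' + (m + 1) = m * (b + 2) := by
          have : a' + 1 = (b + 1) * m := hm
          nlinarith
        calc m * a' + m * (m + 1) = m * (a' + (m + 1)) := by ring
          _ = m * (m * (b + 2)) := by rw [this]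
          _ = _ := by ring
      have h2 : b + 2 ∣ m * a' + m * (m + 1) := ⟨m * m, by rw [h1]; ring⟩
      exact (Nat.dvd_add_right hd3).1 h2
    have hle : b + 2 ≤ m * (m + 1) := Nat.le_of_dvd (by positivity) hd4
    have h3m : 2 * (b + 2) ≤ 3 * (m * m) := by nlinarith
    have h3a : 2 * (b + 1) ^ 3 ≤ 3 * ((a' + 1) * (a' + 1)) := by
      rw [hm]
      have : 2 * (b + 1) ≤ 3 * (m * m) := by omega
      calc 2 * (b + 1) ^ 3 = (2 * (b + 1)) * ((b + 1) * (b + 1)) := by ring
        _ ≤ (3 * (m * m)) * ((b + 1) * (b + 1)) := Nat.mul_le_mul_right _ this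
        _ = 3 * ((b + 1) * m * ((b + 1) * m)) := by ring
    -- the window
    set T := (Finset.range b).filter (fun i => 2 ∣ a' + 1 + 1 + i ∨ 3 ∣ a' + 1 + 1 + i) with hT
    have hτ : 2 * b ≤ 3 * T.card + 3 := count_two_three (a' + 1) b
    have hprod : (∏ i ∈ T, (a' + 1 + 1 + i)) ∣ b.factorial := by
      have h1 : (∏ i ∈ T, (a' + 1 + 1 + i)) ∣ ∏ i ∈ Finset.range b, (a' + 1 + 1 + i) :=
        Finset.prod_dvd_prod_of_subset _ _ _ (Finset.filter_subset _ _)
      have h2 : ∏ i ∈ Finset.range b, (a' + 1 + 1 + i) = b.factorial * C := by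
        rw [← Nat.ascFactorial_eq_prod_range, Nat.ascFactorial_eq_factorial_mul_choose]
      rw [h2] at h1
      have h3 : Nat.Coprime (∏ i ∈ T, (a' + 1 + 1 + i)) C := by
        apply Nat.Coprime.prod_left
        intro i hi
        rw [hT, Finset.mem_filter, Finset.mem_range] at hi
        obtain ⟨hib, hi2⟩ := hi
        apply hcop
        intro p hp hpd
        set y := a' + 1 + 1 + i with hy
        rcases hi2 with h2y | h3y
        · obtain ⟨y', hy'⟩ := h2y
          rw [hy'] at hpd
          rcases (Nat.Prime.dvd_mul hp).1 hpd with h4 | h4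
          · have := Nat.le_of_dvd (by norm_num) h4
            omega
          · have := Nat.le_of_dvd (by omega) h4
            omega
        · obtain ⟨y', hy'⟩ := h3y
          rw [hy'] at hpd
          rcases (Nat.Prime.dvd_mul hp).1 hpd with h4 | h4
          · have := Nat.le_of_dvd (by norm_num) h4
            omega
          · have := Nat.le_of_dvd (by omega) h4
            omega
      exact h3.dvd_of_dvd_mul_right h1
    have hpow : (a' + 1) ^ T.card ≤ b.factorial := by
      have h1 : (a' + 1) ^ T.card ≤ ∏ i ∈ T, (a' + 1 + 1 + i) := by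
        apply Finset.pow_card_le_prod
        intro i _
        omega
      exact h1.trans (Nat.le_of_dvd (Nat.factorial_pos _) hprod)
    by_cases hb4 : 4 ≤ b
    · -- the main chain
      set e := 2 * b - 3 with he
      have he3 : e ≤ 3 * T.card := by omega
      have h6b : 6 * b = 3 * e + 9 := by omega
      set A := a' + 1 with hA
      have hA1 : 1 ≤ A * A := Nat.mul_pos (by omega) (by omega)
      have c1 : (A * A) ^ e ≤ (b.factorial) ^ 6 := by
        calc (A * A) ^ e ≤ (A * A) ^ (3 * T.card) := Nat.pow_le_pow_right hA1 he3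
          _ = (A ^ T.card) ^ 6 := by
              rw [← pow_two, ← pow_mul, ← pow_mul]
              congr 1
              ring
          _ ≤ (b.factorial) ^ 6 := Nat.pow_le_pow_left hpow 6
      have c2 : 2 ^ e * ((b + 1) ^ 3) ^ e ≤ 3 ^ e * (A * A) ^ e := by
        rw [← mul_pow, ← mul_pow]
        exact Nat.pow_le_pow_left h3a e
      have c3 : (2 ^ b * b.factorial) ^ 6 ≤ ((b + 1) ^ b) ^ 6 :=
        Nat.pow_le_pow_left (two_pow_mul_factorial_le b) 6
      have c4 : (2 ^ e * 2 ^ (6 * b)) * ((b + 1) ^ 3) ^ e ≤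
          (3 ^ e * (b + 1) ^ 9) * ((b + 1) ^ 3) ^ e := by
        calc (2 ^ e * 2 ^ (6 * b)) * ((b + 1) ^ 3) ^ e
            = (2 ^ e * ((b + 1) ^ 3) ^ e) * 2 ^ (6 * b) := by ring
          _ ≤ (3 ^ e * (A * A) ^ e) * 2 ^ (6 * b) := Nat.mul_le_mul_right _ c2
          _ ≤ (3 ^ e * (b.factorial) ^ 6) * 2 ^ (6 * b) :=
              Nat.mul_le_mul_right _ (Nat.mul_le_mul_left _ c1)
          _ = 3 ^ e * (2 ^ b * b.factorial) ^ 6 := by
              rw [mul_pow, ← pow_mul, mul_comm b 6]
              ring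
          _ ≤ 3 ^ e * ((b + 1) ^ b) ^ 6 := Nat.mul_le_mul_left _ c3
          _ = (3 ^ e * (b + 1) ^ 9) * ((b + 1) ^ 3) ^ e := by
              rw [← pow_mul, ← pow_mul, mul_assoc, ← pow_add]
              congr 2
              rw [mul_comm b 6, h6b]
              ring
      have c5 : 2 ^ e * 2 ^ (6 * b) ≤ 3 ^ e * (b + 1) ^ 9 :=
        Nat.le_of_mul_le_mul_right c4 (by positivity)
      have c6 := numeric_final b hb4
      rw [← he, pow_add] at c6
      omega
    · -- `b ∈ {2, 3}`
      have hT1 : 1 ≤ T.card := by omega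
      have h1 : a' + 1 ≤ (a' + 1) ^ T.card := Nat.le_self_pow (by omega) _
      have h2 := h1.trans hpow
      have hb23 : b = 2 ∨ b = 3 := by omega
      rcases hb23 with rfl | rfl
      · norm_num [Nat.factorial] at h2
        omega
      · norm_num [Nat.factorial] at h2
        omega

end Ecklund

/-! ### The numerical heart of the imprimitive case -/

theorem val_eq_of_not_dvd_bell {p b c : ℕ} [hp : Fact p.Prime] (hb : b ≠ 0)
    (h : ¬ p ∣ Nat.uniformBell c b) :
    padicValNat p (b * c).factorial = c * padicValNat p b.factorial + padicValNat p c.factorial := by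
  have h1 := Nat.uniformBell_mul_eq c hb
  have h0 : c.uniformBell b ≠ 0 := by
    intro h0
    rw [h0] at h
    exact h (dvd_zero _)
  have h2 : b.factorial ^ c ≠ 0 := pow_ne_zero _ (Nat.factorial_ne_zero _)
  rw [mul_comm b c, ← h1, padicValNat.mul (mul_ne_zero h0 h2) (Nat.factorial_ne_zero _),
    padicValNat.mul h0 h2, padicValNat.pow,
    padicValNat.eq_zero_of_not_dvd h, zero_add]

/-- `2 * uniformBell 2 b = C(2b, b)`. -/
theorem two_mul_bell_two {b : ℕ} (hb : b ≠ 0) : (2 * b).choose b = 2 * Nat.uniformBell 2 b := by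
  have h1 := Nat.uniformBell_mul_eq 2 hb
  have h2 := Nat.choose_mul_factorial_mul_factorial (show b ≤ 2 * b by omega)
  rw [show 2 * b - b = b by omega] at h2
  have hne : b.factorial * b.factorial ≠ 0 := mul_ne_zero (Nat.factorial_ne_zero _) (Nat.factorial_ne_zero _)
  apply Nat.eq_of_mul_eq_mul_right (Nat.pos_of_ne_zero hne)
  calc (2 * b).choose b * (b.factorial * b.factorial) = (2 * b).factorial := by rw [← h2]; ring
    _ = 2 * Nat.uniformBell 2 b * (b.factorial * b.factorial) := by
      rw [← h1, Nat.factorial_two]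
      ring

theorem imprim_numeric {π : Set ℕ} {b c : ℕ} (hb : 2 ≤ b) (hc : 2 ≤ c)
    (h1 : ∀ r : ℕ, r.Prime → r ∈ π → ¬ r ∣ Nat.uniformBell c b)
    (hcπ : ∀ r : ℕ, r.Prime → r ∣ c → r ∈ π)
    (IH : (∀ q : ℕ, q.Prime → q ≤ b → q ∈ π) ∨
      (∀ r s : ℕ, r.Prime → s.Prime → r ∈ π → s ∈ π → r ≤ b → s ≤ b → r = s) ∨
      (b = 8 ∧ ∀ r : ℕ, r.Prime → r ≤ 8 → (r ∈ π ↔ r = 2 ∨ r = 3)))
    (two : ∃ r s : ℕ, r.Prime ∧ s.Prime ∧ r ≠ s ∧ r ∈ π ∧ s ∈ π ∧ r ≤ b * c ∧ s ≤ b * c) :
    b * c = 8 ∧ ∀ r : ℕ, r.Prime → r ≤ 8 → (r ∈ π ↔ r = 2 ∨ r = 3) := by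
  have hb0 : b ≠ 0 := by omega
  have hcne : c ≠ 1 := by omega
  have hr₀ := Nat.minFac_prime hcne
  set r₀ := c.minFac with hr₀def
  have hr₀c : r₀ ∣ c := Nat.minFac_dvd c
  have hr₀π := hcπ r₀ hr₀ hr₀c
  have hr₀le : r₀ ≤ c := Nat.le_of_dvd (by omega) hr₀c
  haveI : Fact r₀.Prime := ⟨hr₀⟩
  obtain ⟨e, he⟩ := eq_pow_of_val_eq hr₀le (by omega) (val_eq_of_not_dvd_bell hb0 (h1 r₀ hr₀ hr₀π))
  have he0 : e ≠ 0 := by
    rintro rfl
    simp at he
    omega
  have hr₀b : r₀ ∣ b := by rw [he]; exact dvd_pow_self _ he0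
  have claimA : ∀ r : ℕ, r.Prime → r ∈ π → r ≤ c → r = r₀ := by
    intro r hr hrπ hrc
    haveI : Fact r.Prime := ⟨hr⟩
    obtain ⟨e', he'⟩ := eq_pow_of_val_eq hrc (by omega) (val_eq_of_not_dvd_bell hb0 (h1 r hr hrπ))
    rw [he'] at hr₀b
    exact ((Nat.prime_dvd_prime_iff_eq hr₀ hr).1 (hr₀.dvd_of_dvd_pow hr₀b)).symm
  have claimB : ∀ r : ℕ, r.Prime → r ∈ π → r ≤ b * c → r ≤ b ∨ r ≤ c := by
    intro r hr hrπ hrle
    by_contra hcon
    push Not at hcon
    haveI : Fact r.Prime := ⟨hr⟩
    have h2 := val_eq_of_not_dvd_bell (p := r) hb0 (h1 r hr hrπ)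
    rw [padicValNat.eq_zero_of_not_dvd (fun hd => by
        have := (Nat.Prime.dvd_factorial hr).1 hd
        omega : ¬ r ∣ b.factorial),
      padicValNat.eq_zero_of_not_dvd (fun hd => by
        have := (Nat.Prime.dvd_factorial hr).1 hd
        omega : ¬ r ∣ c.factorial)] at h2
    have h3 : r ∣ (b * c).factorial := (Nat.Prime.dvd_factorial hr).2 hrle
    have := one_le_padicValNat_of_dvd (Nat.factorial_ne_zero _) h3
    omega
  obtain ⟨r₁, hr₁, hr₁π, hr₁ne, hr₁le⟩ : ∃ r₁ : ℕ, r₁.Prime ∧ r₁ ∈ π ∧ r₁ ≠ r₀ ∧ r₁ ≤ b * c := by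
    obtain ⟨r, s, hr, hs, hrs, hrπ, hsπ, hrl, hsl⟩ := two
    by_cases hr0 : r = r₀
    · exact ⟨s, hs, hsπ, fun h => hrs (hr0.trans h.symm), hsl⟩
    · exact ⟨r, hr, hrπ, hr0, hrl⟩
  have hr₁c : c < r₁ := by
    by_contra hcon
    push Not at hcon
    exact hr₁ne (claimA r₁ hr₁ hr₁π hcon)
  have hr₁b : r₁ ≤ b := by
    rcases claimB r₁ hr₁ hr₁π hr₁le with h | h
    · exact h
    · omega
  have hr₀leb : r₀ ≤ b := Nat.le_of_dvd (by omega) hr₀b
  have h2π : 2 ∈ π := by
    rcases IH with hI | hI | hI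
    · exact hI 2 Nat.prime_two hb
    · exact absurd (hI r₁ r₀ hr₁ hr₀ hr₁π hr₀π hr₁b hr₀leb) hr₁ne
    · exact (hI.2 2 Nat.prime_two (by norm_num)).2 (Or.inl rfl)
  have hr₀2 : r₀ = 2 := (claimA 2 Nat.prime_two h2π hc).symm
  rw [hr₀2] at he hr₁ne
  have hr₁3 : 3 ≤ r₁ := by
    have := hr₁.two_le
    omega
  have hc3 : 3 ∈ π → c = 2 := by
    intro h3
    by_contra hne
    have h4 := claimA 3 Nat.prime_three h3 (by omega)
    omega
  rcases IH with hI | hI | hI
  · -- all primes `≤ b` lie in `π`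
    have hc2 : c = 2 := hc3 (hI 3 Nat.prime_three (by omega))
    subst hc2
    by_cases he3 : 3 ≤ e
    · exfalso
      obtain ⟨r, hr, hr2, hrle, hrd⟩ := exists_odd_prime_dvd_central he3
      rw [← he, two_mul_bell_two hb0] at hrd
      rw [← he] at hrle
      rcases (Nat.Prime.dvd_mul hr).1 hrd with h3 | h3
      · exact hr2 ((Nat.prime_dvd_prime_iff_eq hr Nat.prime_two).1 h3)
      · exact h1 r hr (hI r hr hrle) h3
    · have he2 : e = 1 ∨ e = 2 := by omega
      rcases he2 with rfl | rfl
      · norm_num at he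
        omega
      · norm_num at he
        subst he
        refine ⟨by norm_num, ?_⟩
        intro r hr hr8
        constructor
        · intro hrπ
          have h5 := claimB r hr hrπ (by omega)
          have h6 : r ≤ 4 := by omega
          have h7 := hr.two_le
          interval_cases r
          · left; rfl
          · right; rfl
          · norm_num at hr
        · rintro (rfl | rfl)
          · exact hI 2 Nat.prime_two (by norm_num)
          · exact hI 3 Nat.prime_three (by norm_num)
  · exact absurd (hI r₁ r₀ hr₁ hr₀ hr₁π hr₀π hr₁b hr₀leb) (by omega)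
  · -- `b = 8`, `π ∩ [1,8] = {2,3}`
    exfalso
    obtain ⟨hb8, hπ8⟩ := hI
    have h3π : 3 ∈ π := (hπ8 3 Nat.prime_three (by norm_num)).2 (Or.inr rfl)
    have hc2 := hc3 h3π
    subst hc2 hb8
    apply h1 3 Nat.prime_three h3π
    have h4 := two_mul_bell_two (b := 8) (by norm_num)
    have h5 : (2 * 8).choose 8 = 12870 := by
      rw [Nat.choose_eq_descFactorial_div_factorial]
      norm_num [Nat.descFactorial, Nat.factorial]
    rw [h5] at h4
    have h6 : Nat.uniformBell 2 8 = 6435 := by omega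
    rw [h6]
    norm_num

end Cfsg.Agent.Lib.HallPrime.Arith
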