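import Cfsg.Agent.Lib.HallPrime.Arith
import Cfsg.Agent.Lib.HallSym.AltExt
import Cfsg.Agent.Lib.Perm.JordanPrime

/-!
# Transitive Hall subgroups of symmetric groups

If `H ≤ Sym(α)` is a transitive Hall `π`-subgroup and at least two primes of `π` are at most `|α|`, then either every
prime at most `|α|` lies in `π`, or `|α| = 8` and `π ∩ [1,8] = {2,3}`.
-/

set_option autoImplicit false
set_option linter.unusedSectionVars false

open Equiv Equiv.Perm MulAction
open scoped Pointwise

namespace Cfsg.Agent.Lib.HallPrime.Trans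

open Cfsg.Agent.Lib.HallPrime.Arith

section Restrict

variable {α : Type*} [Finite α]

/-- The restriction homomorphism to an invariant subset. -/
def restr (S : Subgroup (Perm α)) (p : α → Prop) (hS : ∀ g ∈ S, ∀ x, p (g x) ↔ p x) :
    S →* Perm {x // p x} where
  toFun g := (g : Perm α).subtypePerm (hS g g.2)
  map_one' := by ext; rfl
  map_mul' := by intro g h; ext; rfl

@[simp] theorem restr_apply (S : Subgroup (Perm α)) (p : α → Prop) (hS : ∀ g ∈ S, ∀ x, p (g x) ↔ p x)
    (g : S) (x : {x // p x}) : ((restr S p hS g x : {x // p x}) : α) = (g : Perm α) x := rfl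

/-- The fundamental index identity for an invariant subset. -/
theorem index_restr (S : Subgroup (Perm α)) (p : α → Prop) (hS : ∀ g ∈ S, ∀ x, p (g x) ↔ p x) :
    ∃ J : ℕ, (Nat.card α).choose (Nat.card {x // p x}) * (restr S p hS).range.index * J = S.index := by
  classical
  haveI := Fintype.ofFinite α
  have hS' : ∀ g ∈ S, ∀ x, (¬ p (g x)) ↔ ¬ p x := fun g hg x => not_congr (hS g hg x)
  set ρ := restr S p hS with hρ
  set ρ' := restr S (fun x => ¬ p x) hS' with hρ'
  set K := ρ.ker with hK
  have hinj : Function.Injective (ρ'.comp K.subtype) := by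
    rw [injective_iff_map_eq_one]
    intro g hg
    apply Subtype.ext
    apply Subtype.ext
    ext x
    by_cases hx : p x
    · have h1 : ρ (g : S) = 1 := g.2
      have h2 := congrArg (fun f : Perm {x // p x} => ((f ⟨x, hx⟩ : {x // p x}) : α)) h1
      simpa [hρ] using h2
    · have h2 := congrArg (fun f : Perm {x // ¬ p x} => ((f ⟨x, hx⟩ : {x // ¬ p x}) : α)) hg
      simpa [hρ'] using h2
  have hd := Subgroup.card_dvd_of_injective _ hinj
  rw [Nat.card_perm] at hd
  obtain ⟨J, hJ⟩ := hd
  have hcompl : Nat.card {x // ¬ p x} = Nat.card α - Nat.card {x // p x} := by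
    simp only [Nat.card_eq_fintype_card]
    exact Fintype.card_subtype_compl _
  have hle : Nat.card {x // p x} ≤ Nat.card α := Finite.card_subtype_le _
  set n := Nat.card α with hn
  set b := Nat.card {x // p x} with hb
  rw [hcompl] at hJ
  refine ⟨J, ?_⟩
  have e1 : Nat.card S * S.index = n.factorial := by
    rw [Subgroup.card_mul_index, Nat.card_perm]
  have e2 : Nat.card K * Nat.card ρ.range = Nat.card S := by
    rw [← Subgroup.index_ker, Subgroup.card_mul_index]
  have e3 : Nat.card ρ.range * ρ.range.index = b.factorial := by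
    rw [Subgroup.card_mul_index, Nat.card_perm]
  have e4 := Nat.choose_mul_factorial_mul_factorial hle
  have hpos : 0 < Nat.card K * Nat.card ρ.range := by
    rw [e2]
    exact Nat.card_pos
  apply Nat.eq_of_mul_eq_mul_left hpos
  calc Nat.card K * Nat.card ρ.range * (n.choose b * ρ.range.index * J)
      = n.choose b * (Nat.card ρ.range * ρ.range.index) * (Nat.card K * J) := by ring
    _ = n.choose b * b.factorial * (n - b).factorial := by rw [e3, ← hJ]
    _ = n.factorial := e4
    _ = Nat.card K * Nat.card ρ.range * S.index := by rw [e2, e1]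

/-- Prime divisors of the restriction. -/
theorem card_range_restr_dvd (S : Subgroup (Perm α)) (p : α → Prop)
    (hS : ∀ g ∈ S, ∀ x, p (g x) ↔ p x) : Nat.card (restr S p hS).range ∣ Nat.card S :=
  Subgroup.card_range_dvd _

end Restrict

section Cycle

variable {α : Type*} [Fintype α] [DecidableEq α]

/-- A Hall subgroup contains cycles of the relevant prime power lengths. -/
theorem exists_cycle_of_hall {π : Set ℕ} {H : Subgroup (Perm α)} (hH : Cfsg.IsPiHall π H) {p t : ℕ}
    (hp : p.Prime) (hpπ : p ∈ π) (ht : 1 ≤ t) (h : p ^ t ≤ Nat.card α) :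
    ∃ z ∈ H, z.IsCycle ∧ z.support.card = p ^ t := by
  haveI : Fact p.Prime := ⟨hp⟩
  have h2 : 2 ≤ p ^ t := by
    calc 2 ≤ p := hp.two_le
      _ = p ^ 1 := (pow_one p).symm
      _ ≤ p ^ t := Nat.pow_le_pow_right hp.pos ht
  obtain ⟨z, hz, hzc, -⟩ := Cfsg.Agent.Lib.HallSym.Basic.exists_cycle_support (Finset.univ : Finset α) h2
    (by rwa [Finset.card_univ, ← Nat.card_eq_fintype_card])
  have hpow : z ^ p ^ t = 1 := by
    rw [← hzc]
    exact Cfsg.Agent.Lib.HallSym.Basic.IsCycle_pow_card hz
  have hi : ¬ p ∣ H.relIndex ⊤ := by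
    rw [Subgroup.relIndex_top_right]
    exact hH.2 p hp hpπ
  obtain ⟨w, -, hw⟩ := Cfsg.Agent.Lib.HallSym.Basic.exists_conj_mem_of_pow_eq_one
    (Subgroup.mem_top z) hpow hi
  refine ⟨_, hw, ?_, ?_⟩
  · have := hz.conj (g := w⁻¹)
    simpa using this
  · have : w⁻¹ * z * w = w⁻¹ * z * (w⁻¹)⁻¹ := by simp
    rw [this, Perm.support_conj]
    simpa using hzc

end Cycle

/-- The conclusion of the transitive lemma. -/
def Concl (π : Set ℕ) (a : ℕ) : Prop :=
  (∀ q : ℕ, q.Prime → q ≤ a → q ∈ π) ∨
    (∀ r s : ℕ, r.Prime → s.Prime → r ∈ π → s ∈ π → r ≤ a → s ≤ a → r = s) ∨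
    (a = 8 ∧ ∀ r : ℕ, r.Prime → r ≤ 8 → (r ∈ π ↔ r = 2 ∨ r = 3))

section Prim

variable {α : Type*} [Fintype α] [DecidableEq α]

/-- Group theory of order `r * a`: a cycle of length `a` (full support) and a cycle of length `r`,
`a = r + 2`, in a group of order `r * a`: impossible. -/
theorem twin_contra {H : Subgroup (Perm α)} {a r : ℕ} (ha : a.Prime) (hr : r.Prime) (har : a = r + 2)
    (hr3 : 3 ≤ r) (hcard : Nat.card α = a) (hHcard : Nat.card H = a * r)
    {τ σ : Perm α} (hτH : τ ∈ H) (hσH : σ ∈ H) (hτ : τ.IsCycle) (hσ : σ.IsCycle)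
    (hτa : τ.support.card = a) (hσr : σ.support.card = r) : False := by
  set τ' : H := ⟨τ, hτH⟩ with hτ'
  set σ' : H := ⟨σ, hσH⟩ with hσ'
  have hordτ : orderOf τ = a := by rw [hτ.orderOf, hτa]
  have hordτ' : orderOf τ' = a := by rw [hτ', Subgroup.orderOf_mk, hordτ]
  set P : Subgroup H := Subgroup.zpowers τ' with hP
  have hPcard : Nat.card P = a := by rw [hP, Nat.card_zpowers, hordτ']
  have hPindex : P.index = r := by
    have h1 := Subgroup.card_mul_index P
    rw [hPcard, hHcard] at h1
    exact Nat.eq_of_mul_eq_mul_left ha.pos h1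
  have hmin : (Nat.card H).minFac = r := by
    rw [hHcard]
    have hne : a * r ≠ 1 := by
      have := ha.two_le
      have := hr.two_le
      nlinarith
    have h1 := Nat.minFac_dvd (a * r)
    have h2 := Nat.minFac_prime hne
    have h3 : (a * r).minFac ≤ r := Nat.minFac_le_of_dvd hr.two_le (dvd_mul_left _ _)
    rcases (Nat.Prime.dvd_mul h2).1 h1 with h4 | h4
    · have := (Nat.prime_dvd_prime_iff_eq h2 ha).1 h4
      omega
    · exact (Nat.prime_dvd_prime_iff_eq h2 hr).1 h4
  have hnorm : P.Normal := Subgroup.normal_of_index_eq_minFac_card (by rw [hPindex, hmin])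
  have h1 : σ' * τ' * σ'⁻¹ ∈ P := hnorm.conj_mem τ' (Subgroup.mem_zpowers τ') σ'
  have hfin : IsOfFinOrder τ' := isOfFinOrder_of_finite τ'
  rw [hP, hfin.mem_zpowers_iff_mem_range_orderOf] at h1
  obtain ⟨k, -, hk⟩ := Finset.mem_image.1 h1
  have hkτ : σ * τ * σ⁻¹ = τ ^ k := by
    have := congrArg (Subtype.val) hk
    simpa [hτ', hσ'] using this.symm
  have hconj : ∀ j : ℕ, σ ^ j * τ * (σ ^ j)⁻¹ = τ ^ (k ^ j) := by
    intro j
    induction j with
    | zero => simp
    | succ j ih =>
      have e1 : σ ^ (j + 1) * τ * (σ ^ (j + 1))⁻¹ = σ * (σ ^ j * τ * (σ ^ j)⁻¹) * σ⁻¹ := by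
        rw [pow_succ']
        group
      rw [e1, ih, ← conj_pow, hkτ, ← pow_mul, pow_succ]
      congr 1
      ring
  have hσpow : σ ^ r = 1 := by
    rw [← hσr]
    exact Cfsg.Agent.Lib.HallSym.Basic.IsCycle_pow_card hσ
  have h2 : τ ^ (k ^ r) = τ := by
    have := hconj r
    rw [hσpow] at this
    simpa using this.symm
  have h3 : k ^ r ≡ 1 [MOD a] := by
    have h4 : τ ^ (k ^ r) = τ ^ 1 := by rw [h2, pow_one]
    rw [pow_eq_pow_iff_modEq, hordτ] at h4
    exact h4
  -- `k` is a unit mod `a`
  have hk0 : ¬ a ∣ k := by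
    intro hd
    have h5 : a ∣ k ^ r := hd.trans (dvd_pow_self _ (by omega))
    have h6 : k ^ r % a = 1 % a := h3
    rw [Nat.mod_eq_zero_of_dvd h5, Nat.mod_eq_of_lt (by omega)] at h6
    omega
  haveI : Fact a.Prime := ⟨ha⟩
  have h7 : ((k : ZMod a)) ^ (a - 1) = 1 :=
    ZMod.pow_card_sub_one_eq_one (by
      rw [Ne, ZMod.natCast_eq_zero_iff]
      exact hk0)
  have h8 : ((k : ZMod a)) ^ r = 1 := by
    have := (ZMod.natCast_eq_natCast_iff _ _ _).2 h3
    simpa using this
  have h9 : (k : ZMod a) = 1 := by
    have e : a - 1 = r + 1 := by omega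
    rw [e, pow_succ, h8, one_mul] at h7
    exact h7
  have h10 : k ≡ 1 [MOD a] := by
    have := (ZMod.natCast_eq_natCast_iff k 1 a).1 (by simpa using h9)
    exact this
  have h11 : τ ^ k = τ := by
    have h12 : τ ^ k = τ ^ 1 := by
      rw [pow_eq_pow_iff_modEq, hordτ]
      exact h10
    rw [h12, pow_one]
  have hcomm : σ * τ = τ * σ := by
    have : σ * τ * σ⁻¹ = τ := by rw [hkτ, h11]
    calc σ * τ = σ * τ * σ⁻¹ * σ := by group
      _ = τ * σ := by rw [this]
  -- `σ` fixes a point
  have hsup : τ.support = Finset.univ := by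
    apply Finset.eq_univ_of_card
    rw [hτa, ← Nat.card_eq_fintype_card, hcard]
  obtain ⟨x₀, hx₀⟩ : ∃ x, x ∉ σ.support := by
    by_contra hcon
    push Not at hcon
    have : σ.support = Finset.univ := Finset.eq_univ_of_forall hcon
    rw [this, Finset.card_univ, ← Nat.card_eq_fintype_card, hcard] at hσr
    omega
  have hσx : σ x₀ = x₀ := by simpa using hx₀
  have hmem : ∀ x, τ x ≠ x := fun x => by
    have : x ∈ τ.support := by rw [hsup]; exact Finset.mem_univ _
    simpa using this
  have hσ1 : σ = 1 := by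
    ext y
    obtain ⟨i, hi⟩ := hτ.exists_pow_eq (hmem x₀) (hmem y)
    have hci : σ * τ ^ i = τ ^ i * σ := (Commute.pow_right hcomm i)
    have := congrFun (congrArg DFunLike.coe hci) x₀
    simp only [Perm.coe_mul, Function.comp_apply, hσx, hi] at this
    simpa using this
  exact hσ.ne_one hσ1

/-- The primitive case. -/
theorem prim_case {π : Set ℕ} {H : Subgroup (Perm α)} (hH : Cfsg.IsPiHall π H)
    (hprim : IsPreprimitive H α) : Concl π (Nat.card α) := by
  set a := Nat.card α with ha
  have haF : Fintype.card α = a := (Nat.card_eq_fintype_card).symm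
  by_cases h1 : ∀ q : ℕ, q.Prime → q ≤ a → q ∈ π
  · exact Or.inl h1
  by_cases h2 : ∀ r s : ℕ, r.Prime → s.Prime → r ∈ π → s ∈ π → r ≤ a → s ≤ a → r = s
  · exact Or.inr (Or.inl h2)
  exfalso
  push Not at h1 h2
  obtain ⟨q, hq, hqa, hqπ⟩ := h1
  have hcard_H : Nat.card H ∣ a.factorial := by
    have := Subgroup.card_subgroup_dvd_card H
    rwa [Nat.card_perm] at this
  have cyc : ∀ r : ℕ, r.Prime → r ∈ π → r ≤ a → ∃ z ∈ H, z.IsCycle ∧ z.support.card = r := by
    intro r hr hrπ hra
    obtain ⟨z, hz, hzc, hzs⟩ := exists_cycle_of_hall hH hr hrπ (le_refl 1) (by rw [pow_one]; exact hra)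
    exact ⟨z, hz, hzc, by simpa using hzs⟩
  have large : ∀ r : ℕ, r.Prime → r ∈ π → r ≤ a → a ≤ r + 2 := by
    intro r hr hrπ hra
    by_contra hcon
    push Not at hcon
    obtain ⟨z, hz, hzc, hzs⟩ := cyc r hr hrπ hra
    have hle := Cfsg.Agent.Lib.Perm.JordanPrime.jordan_prime_cycle H hprim hr (by omega) hzc hzs hz
    have ha5 : 5 ≤ a := by
      have := hr.two_le
      omega
    have h4 : 4 ∣ a.factorial := Nat.dvd_factorial (by norm_num) (by omega)
    have hnt : Nontrivial α := by
      rw [← Fintype.one_lt_card_iff_nontrivial, haF]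
      omega
    have halt : 2 * Nat.card (alternatingGroup α) = a.factorial := by
      have := two_mul_card_alternatingGroup (α := α)
      rw [Fintype.card_perm, haF] at this
      rw [Nat.card_eq_fintype_card]
      exact this
    have hqalt : q ∣ Nat.card (alternatingGroup α) := by
      by_cases hq2 : q = 2
      · subst hq2
        rw [← halt] at h4
        have : (2 * 2) ∣ 2 * Nat.card (alternatingGroup α) := h4
        exact Nat.dvd_of_mul_dvd_mul_left (by norm_num) this
      · have h5 : q ∣ 2 * Nat.card (alternatingGroup α) := by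
          rw [halt]
          exact (Nat.Prime.dvd_factorial hq).2 hqa
        rcases (Nat.Prime.dvd_mul hq).1 h5 with h6 | h6
        · exact absurd ((Nat.prime_dvd_prime_iff_eq hq Nat.prime_two).1 h6) hq2
        · exact h6
    have := hqalt.trans (Subgroup.card_dvd_of_le hle)
    exact hqπ (hH.1 q hq this)
  have main : ∀ r s : ℕ, r.Prime → s.Prime → r ∈ π → s ∈ π → r ≤ a → s ≤ a → r < s → False := by
    intro r s hr hs hrπ hsπ hra hsa hrs
    have h3 := large r hr hrπ hra
    have hs12 : s = r + 1 ∨ s = r + 2 := by omega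
    rcases hs12 with rfl | rfl
    · -- consecutive primes
      have hr2 : r = 2 := by
        rcases hr.eq_two_or_odd' with h | h
        · exact h
        · have : Even (r + 1) := h.add_one
          have h5 := hs.even_iff.1 this
          have := hr.two_le
          omega
      subst hr2
      have hq4 : q ≤ 4 := by omega
      have hq2 := hq.two_le
      interval_cases q
      · exact hqπ hrπ
      · exact hqπ hsπ
      · norm_num at hq
    · have har : a = r + 2 := by omega
      have hr2 : r ≠ 2 := by
        rintro rfl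
        norm_num at hs
      have hr3 : 3 ≤ r := by
        have := hr.two_le
        omega
      have haP : a.Prime := by rw [har]; exact hs
      obtain ⟨τ, hτH, hτ, hτa⟩ := cyc (r + 2) hs hsπ hsa
      obtain ⟨σ, hσH, hσ, hσr⟩ := cyc r hr hrπ hra
      have hdτ : (r + 2) ∣ Nat.card H := by
        rw [← hτa, ← hτ.orderOf]
        exact Cfsg.Agent.Lib.HallSym.Class.orderOf_dvd_card_of_mem hτH
      have hdσ : r ∣ Nat.card H := by
        rw [← hσr, ← hσ.orderOf]
        exact Cfsg.Agent.Lib.HallSym.Class.orderOf_dvd_card_of_mem hσH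
      have hcop : Nat.Coprime (r + 2) r := by
        rw [Nat.coprime_primes hs hr]
        omega
      obtain ⟨M, hM⟩ := Nat.Coprime.mul_dvd_of_dvd_of_dvd hcop hdτ hdσ
      have hM1 : M = 1 := by
        by_contra hne
        obtain ⟨p, hp, hpM⟩ := Nat.exists_prime_and_dvd hne
        have hpH : p ∣ Nat.card H := by
          rw [hM]
          exact hpM.trans (dvd_mul_left _ _)
        have hpπ := hH.1 p hp hpH
        have hpa : p ≤ a := (Nat.Prime.dvd_factorial hp).1 (hpH.trans hcard_H)
        have hlarge := large p hp hpπ hpa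
        have hp3 : p = r ∨ p = r + 1 ∨ p = r + 2 := by omega
        obtain ⟨M', rfl⟩ := hpM
        have hdv : (r + 2) * r * p ∣ a.factorial := by
          refine Dvd.dvd.trans ?_ hcard_H
          rw [hM]
          exact ⟨M', by ring⟩
        obtain ⟨r', rfl⟩ : ∃ r', r = r' + 1 := ⟨r - 1, by omega⟩
        have hfact : a.factorial = (r' + 1 + 2) * ((r' + 1 + 1) * ((r' + 1) * r'.factorial)) := by
          rw [har, show r' + 1 + 2 = (r' + 1 + 1) + 1 by ring, Nat.factorial_succ, Nat.factorial_succ,
            Nat.factorial_succ]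
        rcases hp3 with rfl | rfl | rfl
        · -- `p = r`
          rw [hfact] at hdv
          have h5 : (r' + 1) ∣ (r' + 1 + 1) * r'.factorial := by
            have h6 : (r' + 1 + 2) * (r' + 1) * (r' + 1) ∣
                (r' + 1 + 2) * (r' + 1) * ((r' + 1 + 1) * r'.factorial) := by
              convert hdv using 1
              ring
            exact Nat.dvd_of_mul_dvd_mul_left (by positivity) h6
          rcases (Nat.Prime.dvd_mul hr).1 h5 with h7 | h7
          · have : (r' + 1) ∣ 1 := (Nat.dvd_add_right (dvd_refl _)).1 h7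
            have := Nat.le_of_dvd (by norm_num) this
            omega
          · have := (Nat.Prime.dvd_factorial hr).1 h7
            omega
        · -- `p = r + 1` is even
          have hodd : Odd (r' + 1) := by
            rcases hr.eq_two_or_odd' with h | h
            · omega
            · exact h
          have := hp.even_iff.1 hodd.add_one
          omega
        · -- `p = a`
          rw [hfact] at hdv
          have h5 : (r' + 1 + 2) ∣ (r' + 1 + 1) * ((r' + 1) * r'.factorial) := by
            have h6 : (r' + 1 + 2) * (r' + 1 + 2) ∣ (r' + 1 + 2) * ((r' + 1 + 1) * ((r' + 1) * r'.factorial)) :=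
              (Dvd.intro_left (r' + 1) (by ring)).trans hdv
            exact Nat.dvd_of_mul_dvd_mul_left (by positivity) h6
          rw [← Nat.factorial_succ, ← Nat.factorial_succ] at h5
          have := (Nat.Prime.dvd_factorial hs).1 h5
          omega
      rw [hM1, mul_one] at hM
      exact twin_contra haP hr (by rw [har]) hr3 rfl (by rw [hM, har]) hτH hσH hτ hσ
        (by rw [hτa, har]) hσr
  obtain ⟨r, s, hr, hs, hrπ, hsπ, hra, hsa, hrs⟩ := h2
  rcases lt_or_gt_of_ne hrs with h | h
  · exact main r s hr hs hrπ hsπ hra hsa h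
  · exact main s r hs hr hsπ hrπ hsa hra h

end Prim

section Imprim

variable {α : Type*} [Finite α]

/-- The number of block systems of the right shape divides the index. -/
theorem bell_dvd_index {H : Subgroup (Perm α)} [IsPretransitive H α] {B : Set α} (hB : IsBlock H B)
    (hne : B.Nonempty) : Nat.uniformBell (orbit H B).ncard B.ncard ∣ H.index := by
  classical
  haveI := Fintype.ofFinite α
  haveI : Fintype (orbit H B) := Fintype.ofFinite _
  obtain ⟨x₀, hx₀⟩ := hne
  have hex : ∀ x : α, ∃ i : orbit H B, x ∈ (i : Set α) := by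
    intro x
    obtain ⟨g, hg⟩ := exists_smul_eq H x₀ x
    refine ⟨⟨g • B, mem_orbit _ g⟩, ?_⟩
    rw [← hg]
    exact Set.smul_mem_smul_set hx₀
  have huniq : ∀ (x : α) (i j : orbit H B), x ∈ (i : Set α) → x ∈ (j : Set α) → i = j := by
    rintro x ⟨_, g₁, rfl⟩ ⟨_, g₂, rfl⟩ h1 h2
    apply Subtype.ext
    by_contra hne
    have hd := hB hne
    exact Set.disjoint_left.1 hd h1 h2
  choose col hcol using hex
  have hcol' : ∀ (x : α) (i : orbit H B), x ∈ (i : Set α) → col x = i := fun x i hx =>
    huniq x _ _ (hcol x) hx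
  let φ := MulAction.toPermHom H (orbit H B)
  set K := φ.ker with hK
  have hKcl : K.map H.subtype ≤ Cfsg.Agent.Lib.HallSym.Class.classPres (Setoid.ker col) := by
    rintro _ ⟨g, hg, rfl⟩ x
    show col ((g : Perm α) x) = col x
    apply hcol'
    have h1 : φ g = 1 := hg
    have h2 : g • col x = col x := by
      have := congrArg (fun f : Perm (orbit H B) => f (col x)) h1
      simpa [φ] using this
    have h3 : ((g • col x : orbit H B) : Set α) = (g • ((col x : orbit H B) : Set α)) := rfl
    rw [← h2, h3]
    exact Set.smul_mem_smul_set (hcol x)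
  have hcardK : Nat.card K ∣ B.ncard.factorial ^ (orbit H B).ncard := by
    have h1 : Nat.card K = Nat.card (K.map H.subtype) :=
      Nat.card_congr (Subgroup.equivMapOfInjective K H.subtype H.subtype_injective).toEquiv
    rw [h1]
    have h2 := Subgroup.card_dvd_of_le hKcl
    rw [Cfsg.Agent.Lib.HallSym.AltExt.card_classPres_ker] at h2
    have h3 : ∀ i : orbit H B, Fintype.card {a // col a = i} = B.ncard := by
      rintro ⟨_, g, rfl⟩
      have e1 : Fintype.card {a // col a = ⟨g • B, mem_orbit _ g⟩} = Nat.card ((g • B : Set α)) := by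
        rw [← Nat.card_eq_fintype_card]
        apply Nat.card_congr
        refine Equiv.subtypeEquivRight (fun a => ?_)
        constructor
        · intro h
          have := hcol a
          rw [h] at this
          exact this
        · intro h
          exact hcol' a _ h
      rw [e1, Nat.card_coe_set_eq, Set.ncard_smul_set]
    simp only [h3, Finset.prod_const, Finset.card_univ] at h2
    have h4 : Fintype.card (orbit H B) = (orbit H B).ncard := by
      rw [← Nat.card_eq_fintype_card, Nat.card_coe_set_eq]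
    rwa [h4] at h2
  have hcardR : Nat.card φ.range ∣ (orbit H B).ncard.factorial := by
    have := Subgroup.card_subgroup_dvd_card φ.range
    rwa [Nat.card_perm, Nat.card_coe_set_eq] at this
  have hKR : Nat.card K * Nat.card φ.range = Nat.card H := by
    rw [← Subgroup.index_ker, Subgroup.card_mul_index]
  obtain ⟨d₁, hd₁⟩ := hcardK
  obtain ⟨d₂, hd₂⟩ := hcardR
  have hbc := hB.ncard_block_mul_ncard_orbit_eq ⟨x₀, hx₀⟩
  set b := B.ncard with hb
  set c := (orbit H B).ncard with hc
  have hb0 : b ≠ 0 := by
    intro h0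
    have hfin : B.Finite := Set.toFinite B
    have := (Set.ncard_eq_zero hfin).1 h0
    rw [this] at hx₀
    exact hx₀
  have h1 := Nat.uniformBell_mul_eq c hb0
  have h2 := Subgroup.card_mul_index H
  rw [Nat.card_perm, ← hbc, mul_comm b c] at h2
  refine ⟨d₁ * d₂, ?_⟩
  have hpos : 0 < Nat.card H := Nat.card_pos
  apply Nat.eq_of_mul_eq_mul_left hpos
  rw [h2, ← h1, hd₁, hd₂, ← hKR]
  ring

end Imprim

/-- The transitive lemma. -/
theorem trans_main (π : Set ℕ) : ∀ (a : ℕ) (α : Type) [Finite α] (H : Subgroup (Perm α)),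
    Nat.card α = a → Cfsg.IsPiHall π H → IsPretransitive H α → Concl π a := by
  intro a
  induction a using Nat.strong_induction_on with
  | _ a ih =>
    intro α _ H hcard hH htr
    classical
    haveI := Fintype.ofFinite α
    by_cases hprim : IsPreprimitive H α
    · rw [← hcard]
      exact prim_case hH hprim
    obtain ⟨B, hB, hnt⟩ : ∃ B : Set α, IsBlock H B ∧ ¬ IsTrivialBlock B := by
      by_contra hcon
      push Not at hcon
      exact hprim { isTrivialBlock_of_isBlock := fun {B} hB => hcon B hB }
    by_cases two : ∃ r s : ℕ, r.Prime ∧ s.Prime ∧ r ≠ s ∧ r ∈ π ∧ s ∈ π ∧ r ≤ a ∧ s ≤ a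
    swap
    · refine Or.inr (Or.inl ?_)
      intro r s hr hs hrπ hsπ hra hsa
      by_contra hne
      exact two ⟨r, s, hr, hs, hne, hrπ, hsπ, hra, hsa⟩
    have hnotsub : ¬ B.Subsingleton := fun h => hnt (Or.inl h)
    have hnotuniv : B ≠ Set.univ := fun h => hnt (Or.inr h)
    have hne : B.Nonempty := by
      rw [Set.nonempty_iff_ne_empty]
      rintro rfl
      exact hnotsub Set.subsingleton_empty
    have hbc := hB.ncard_block_mul_ncard_orbit_eq hne
    have hB2 : 2 ≤ B.ncard := by
      by_contra hlt
      apply hnotsub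
      exact Set.ncard_le_one_iff_subsingleton.1 (by omega)
    set b := B.ncard with hb
    set c := (orbit H B).ncard with hc
    rw [hcard] at hbc
    have hapos : 0 < a := by
      rw [← hcard]
      exact Nat.card_pos_iff.2 ⟨⟨hne.some⟩, inferInstance⟩
    have hc2 : 2 ≤ c := by
      by_contra hlt
      have hc1 : c = 0 ∨ c = 1 := by omega
      rcases hc1 with h | h
      · rw [h] at hbc
        omega
      · rw [h, mul_one] at hbc
        apply hnotuniv
        apply Set.eq_of_subset_of_ncard_le (Set.subset_univ B)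
        rw [Set.ncard_univ, hcard, ← hb, hbc]
    have hba : b < a := by
      rw [← hbc]
      nlinarith
    -- the stabilizer of the block
    set S : Subgroup (Perm α) := (stabilizer H B).map H.subtype with hSdef
    have hS : ∀ g ∈ S, ∀ x, (g x ∈ B) ↔ x ∈ B := by
      rintro _ ⟨h, hh, rfl⟩ x
      have hh' : h • B = B := hh
      constructor
      · intro h1
        have h2 : h • x ∈ h • B := by rw [hh']; exact h1
        exact (Set.smul_mem_smul_set_iff).1 h2
      · intro h1
        have h2 : h • x ∈ h • B := Set.smul_mem_smul_set h1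
        rw [hh'] at h2
        exact h2
    have hSindex : S.index = c * H.index := by
      rw [hSdef, Subgroup.index_map_subtype, index_stabilizer]
    obtain ⟨J, hJ⟩ := index_restr S (fun x => x ∈ B) hS
    set A := (restr S (fun x => x ∈ B) hS).range with hA
    have hcardB : Nat.card {x // x ∈ B} = b := Nat.card_coe_set_eq B
    rw [hcard, hcardB, hSindex] at hJ
    -- binomial identity
    have hbin : a.choose b = c * (a - 1).choose (b - 1) := by
      obtain ⟨b', hb'⟩ : ∃ b', b = b' + 1 := ⟨b - 1, by omega⟩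
      obtain ⟨a', ha'⟩ : ∃ a', a = a' + 1 := ⟨a - 1, by omega⟩
      have h1 := Nat.add_one_mul_choose_eq a' b'
      rw [← ha', ← hb'] at h1
      rw [show a - 1 = a' by omega, show b - 1 = b' by omega]
      apply Nat.eq_of_mul_eq_mul_right (show 0 < b by omega)
      rw [← h1, ha', ← ha', ← hbc]
      ring
    have hidx : (a - 1).choose (b - 1) * A.index * J = H.index := by
      rw [hbin] at hJ
      apply Nat.eq_of_mul_eq_mul_left (show 0 < c by omega)
      rw [← hJ]
      ring
    have hAH : Cfsg.IsPiHall π A := by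
      constructor
      · intro p hp hpd
        apply hH.1 p hp
        have h1 : Nat.card A ∣ Nat.card S := card_range_restr_dvd S _ hS
        have h2 : Nat.card S ∣ Nat.card H := by
          have h3 : Nat.card S = Nat.card (stabilizer H B) :=
            Nat.card_congr (Subgroup.equivMapOfInjective _ H.subtype H.subtype_injective).toEquiv.symm
          rw [h3]
          exact Subgroup.card_subgroup_dvd_card _
        exact hpd.trans (h1.trans h2)
      · intro p hp hpπ hpd
        apply hH.2 p hp hpπ
        rw [← hidx]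
        exact (hpd.trans (dvd_mul_left _ _)).trans (dvd_mul_right _ _)
    have hAtr : IsPretransitive A {x // x ∈ B} := by
      constructor
      rintro ⟨x, hx⟩ ⟨y, hy⟩
      obtain ⟨g, hg⟩ := exists_smul_eq H x y
      have hgB : g • B = B := hB.smul_eq_of_mem hx (by rw [hg]; exact hy)
      have hgS : (g : Perm α) ∈ S := ⟨g, hgB, rfl⟩
      refine ⟨⟨restr S (fun x => x ∈ B) hS ⟨(g : Perm α), hgS⟩, MonoidHom.mem_range.2 ⟨_, rfl⟩⟩, ?_⟩
      apply Subtype.ext
      exact hg
    have IH := ih b hba {x // x ∈ B} A hcardB hAH hAtr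
    have hbell : Nat.uniformBell c b ∣ H.index := bell_dvd_index hB hne
    have hcπ : ∀ r : ℕ, r.Prime → r ∣ c → r ∈ π := by
      intro r hr hrc
      apply hH.1 r hr
      have h1 : c ∣ a := ⟨b, by rw [← hbc]; ring⟩
      obtain ⟨x₀⟩ := (Nat.card_pos_iff.1 (show 0 < Nat.card α by omega)).1
      have h2 : a ∣ Nat.card H := by
        rw [← hcard, ← index_stabilizer_of_transitive H x₀]
        exact Subgroup.index_dvd_card _
      exact hrc.trans (h1.trans h2)
    have hnum := imprim_numeric (π := π) hB2 hc2
      (fun r hr hrπ hd => hH.2 r hr hrπ (hd.trans hbell)) hcπ IH (by rwa [hbc])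
    rw [hbc] at hnum
    exact Or.inr (Or.inr hnum)

end Cfsg.Agent.Lib.HallPrime.Trans
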